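import Cfsg.Agent.Helper28.SP4.GF4
import Cfsg.Agent.Helper28.U6.SUData
import Cfsg.Agent.Helper28.U6T.Cert
import Cfsg.Agent.Helper28.TCH
import Cfsg.Agent.Helper28.CoxG
import Cfsg.Agent.Helper13.UnitSimple

/-!
# The presented group `P` maps onto `PSU(6, 2)` (helper28)

The eight generators go to the unitary transvections of eight isotropic vectors of the space of
dimension 6 over the field with four elements (`Cfsg.Agent.Helper13.utv`); a relator word acts on the six
basis vectors by a common scalar, so it is central in `SU(6, 2)` and trivial in `PSU(6, 2)`.  The eight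
transvections generate `SU(6, 2)`: every nonzero isotropic vector is reached from the vector of `c` by
the transvections, so all transvections are conjugates of the eight, and the root subgroups generate
`SU(6, 2)` (`Cfsg.Agent.Helper13.iSup_uroot`).
-/

set_option autoImplicit false

namespace Cfsg.Agent.Helper28.U6

open Cfsg.Agent.Helper28 Matrix Cfsg.Agent.Helper13
open Cfsg.Agent.Helper5 (frobQ frobQ_apply)

theorem hF4 : Fintype.card GF4 = 2 ^ 2 := rfl

/-- vectors -/
abbrev V6 : Type := GF4 × GF4 × GF4 × GF4 × GF4 × GF4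

/-- squaring, the field automorphism -/
def sq : GF4 → GF4
  | .z => .z
  | .o => .o
  | .w => .v
  | .v => .w

theorem sq_eq (x : GF4) : sq x = x ^ 2 := by cases x <;> rfl

/-- the Hermitian form on the model -/
def hm (u v : V6) : GF4 :=
  u.1 * sq v.1 + u.2.1 * sq v.2.1 + u.2.2.1 * sq v.2.2.1 + u.2.2.2.1 * sq v.2.2.2.1 +
    u.2.2.2.2.1 * sq v.2.2.2.2.1 + u.2.2.2.2.2 * sq v.2.2.2.2.2

/-- the transvection of the vector `v`, applied to `u` -/
def tvm (v u : V6) : V6 :=
  (u.1 + hm u v * v.1, u.2.1 + hm u v * v.2.1, u.2.2.1 + hm u v * v.2.2.1, u.2.2.2.1 + hm u v * v.2.2.2.1,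
    u.2.2.2.2.1 + hm u v * v.2.2.2.2.1, u.2.2.2.2.2 + hm u v * v.2.2.2.2.2)

/-- a vector as a function -/
def toV (v : V6) : Fin 6 → GF4 := ![v.1, v.2.1, v.2.2.1, v.2.2.2.1, v.2.2.2.2.1, v.2.2.2.2.2]

/-- a function as a vector -/
def ofFun (u : Fin 6 → GF4) : V6 := (u 0, u 1, u 2, u 3, u 4, u 5)

theorem toV_ofFun (u : Fin 6 → GF4) : toV (ofFun u) = u := by
  funext i
  fin_cases i <;> rfl

theorem ofFun_toV (v : V6) : ofFun (toV v) = v := rfl

theorem toV_injective : Function.Injective toV := by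
  intro v w h
  rw [← ofFun_toV v, ← ofFun_toV w, h]

theorem herm_toV (u v : V6) : Cfsg.hermForm 6 GF4 2 (toV u) (toV v) = hm u v := by
  simp [Cfsg.hermForm, Fin.sum_univ_six, toV, hm, sq_eq, add_assoc]

theorem toV_tvm (v u : V6) :
    toV u + (1 * Cfsg.hermForm 6 GF4 2 (toV u) (toV v)) • toV v = toV (tvm v u) := by
  rw [herm_toV, one_mul]
  funext i
  fin_cases i <;> simp [toV, tvm]

/-- the digit of a field element -/
def dig : GF4 → ℕ
  | .z => 0
  | .o => 1
  | .w => 2
  | .v => 3

/-- the field element of a digit -/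
def ofDig (d : ℕ) : GF4 :=
  cond (Nat.beq d 0) GF4.z (cond (Nat.beq d 1) GF4.o (cond (Nat.beq d 2) GF4.w GF4.v))

theorem dig_lt (x : GF4) : dig x < 4 := by cases x <;> decide

theorem ofDig_dig (x : GF4) : ofDig (dig x) = x := by cases x <;> rfl

/-- the vector with a given code -/
def vecOf (i : ℕ) : V6 :=
  (ofDig (i % 4), ofDig (i / 4 % 4), ofDig (i / 16 % 4), ofDig (i / 64 % 4), ofDig (i / 256 % 4),
    ofDig (i / 1024 % 4))

/-- the code of a vector -/
def codeOf (v : V6) : ℕ :=
  dig v.1 + 4 * dig v.2.1 + 16 * dig v.2.2.1 + 64 * dig v.2.2.2.1 + 256 * dig v.2.2.2.2.1 +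
    1024 * dig v.2.2.2.2.2

theorem codeOf_lt (v : V6) : codeOf v < 4096 := by
  rcases v with ⟨a, b, c, d, e, f⟩
  have ha := dig_lt a
  have hb := dig_lt b
  have hc := dig_lt c
  have hd := dig_lt d
  have he := dig_lt e
  have hf := dig_lt f
  simp only [codeOf]
  omega

theorem vecOf_codeOf (v : V6) : vecOf (codeOf v) = v := by
  rcases v with ⟨a, b, c, d, e, f⟩
  have ha := dig_lt a
  have hb := dig_lt b
  have hc := dig_lt c
  have hd := dig_lt d
  have he := dig_lt e
  have hf := dig_lt f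
  simp only [vecOf, codeOf]
  have e1 : (dig a + 4 * dig b + 16 * dig c + 64 * dig d + 256 * dig e + 1024 * dig f) % 4 = dig a := by omega
  have e2 : (dig a + 4 * dig b + 16 * dig c + 64 * dig d + 256 * dig e + 1024 * dig f) / 4 % 4 = dig b := by omega
  have e3 : (dig a + 4 * dig b + 16 * dig c + 64 * dig d + 256 * dig e + 1024 * dig f) / 16 % 4 = dig c := by omega
  have e4 : (dig a + 4 * dig b + 16 * dig c + 64 * dig d + 256 * dig e + 1024 * dig f) / 64 % 4 = dig d := by omega
  have e5 : (dig a + 4 * dig b + 16 * dig c + 64 * dig d + 256 * dig e + 1024 * dig f) / 256 % 4 = dig e := by omega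
  have e6 : (dig a + 4 * dig b + 16 * dig c + 64 * dig d + 256 * dig e + 1024 * dig f) / 1024 % 4 = dig f := by omega
  rw [e1, e2, e3, e4, e5, e6, ofDig_dig, ofDig_dig, ofDig_dig, ofDig_dig, ofDig_dig, ofDig_dig]

/-- the isotropic vectors of the generators -/
def vecG : P.Gen → V6
  | .x => (.o, .o, .o, .w, .o, .w)
  | .c => (.z, .z, .o, .w, .z, .z)
  | .d => (.o, .o, .v, .w, .o, .o)
  | .e => (.o, .v, .z, .z, .o, .o)
  | .f => (.o, .z, .v, .o, .v, .z)
  | .g => (.o, .v, .v, .o, .o, .o)
  | .h => (.z, .o, .z, .z, .z, .w)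
  | .i => (.o, .v, .v, .o, .v, .v)

theorem vecG_iso (s : P.Gen) :
    Cfsg.hermForm 6 GF4 2 (toV (vecG s)) (toV (vecG s)) = 0 := by
  rw [herm_toV]
  cases s <;> decide

theorem frob_one : frobQ hF4 1 = -1 := by
  rw [map_one]
  rfl

/-- the transvections of the generators -/
noncomputable def gS (s : P.Gen) : ↥(Cfsg.SU 6 GF4 2) := utv hF4 (toV (vecG s)) 1

theorem uact_gS (s : P.Gen) (u : V6) : uact (gS s) (toV u) = toV (tvm (vecG s) u) := by
  unfold gS
  rw [uact_utv hF4 _ 1 (vecG_iso s) frob_one, toV_tvm]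

theorem gS_sq (s : P.Gen) : gS s * gS s = 1 := by
  unfold gS
  rw [utv_mul hF4 _ 1 1 (vecG_iso s) frob_one frob_one]
  have e : (1 : GF4) + 1 = 0 := by decide
  rw [e, utv_zero_right]

/-- the vector of the generator with a given number -/
def vk (k : ℕ) : V6 := vecG (Cfsg.Agent.Helper28.U6T.gen k)

/-- the action of a generator on the codes of the vectors -/
noncomputable def stepV (k i : ℕ) : ℕ := codeOf (tvm (vk k) (vecOf i))

theorem prod_act (l : List ℕ) (i : ℕ) :
    uact ((l.map (fun k => gS (Cfsg.Agent.Helper28.U6T.gen k))).prod) (toV (vecOf i)) =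
      toV (vecOf (walkA stepV l i)) := by
  induction l with
  | nil => rw [List.map_nil, List.prod_nil, uact_one, walkA_nil]
  | cons a l ih =>
    rw [List.map_cons, List.prod_cons, uact_mul, ih, uact_gS, walkA_cons]
    show toV (tvm (vk a) (vecOf (walkA stepV l i))) = toV (vecOf (codeOf (tvm (vk a) (vecOf (walkA stepV l i)))))
    rw [vecOf_codeOf]

theorem toV_basis (s : ℕ) (hs : s = 1 ∨ s = 2 ∨ s = 3) (j : Fin 6) :
    toV (vecOf (s * 4 ^ (j : ℕ))) = ofDig s • Pi.single j 1 := by
  rcases hs with rfl | rfl | rfl <;> fin_cases j <;> (funext i; fin_cases i <;> decide)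

/-- a word acts on the six basis vectors by the scalar with digit `s` -/
noncomputable def sclChk (s : ℕ) (l : List ℕ) : Bool :=
  allBelow 6 (fun j => Nat.beq (walkA stepV l (4 ^ j)) (s * 4 ^ j))

/-- a word acts on the six basis vectors by a common nonzero scalar -/
noncomputable def scalChk (l : List ℕ) : Bool := or (sclChk 1 l) (or (sclChk 2 l) (sclChk 3 l))

theorem scal_of_chk (s : ℕ) (hs : s = 1 ∨ s = 2 ∨ s = 3) (l : List ℕ) (h : sclChk s l = true)
    (y : Fin 6 → GF4) :
    uact ((l.map (fun k => gS (Cfsg.Agent.Helper28.U6T.gen k))).prod) y = ofDig s • y := by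
  have hb : ∀ j : Fin 6, uact ((l.map (fun k => gS (Cfsg.Agent.Helper28.U6T.gen k))).prod) (Pi.single j 1) =
      ofDig s • Pi.single j 1 := by
    intro j
    have e1 := toV_basis 1 (Or.inl rfl) j
    rw [one_mul] at e1
    have e2 : ofDig 1 • (Pi.single j 1 : Fin 6 → GF4) = Pi.single j 1 := one_smul _ _
    rw [e2] at e1
    rw [← e1, prod_act, Nat.eq_of_beq_eq_true ((allBelow_iff _ _).mp h j j.2), toV_basis s hs j, e1]
  have hM : (((((l.map (fun k => gS (Cfsg.Agent.Helper28.U6T.gen k))).prod : ↥(Cfsg.SU 6 GF4 2)) :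
      Matrix.SpecialLinearGroup (Fin 6) GF4) : Matrix (Fin 6) (Fin 6) GF4)) = ofDig s • 1 := by
    ext i j
    have := congrFun (hb j) i
    unfold uact at this
    rw [Matrix.mulVec_single_one] at this
    rw [Matrix.smul_apply, Matrix.one_apply, smul_eq_mul]
    rw [Matrix.col_apply, Pi.smul_apply, Pi.single_apply, smul_eq_mul] at this
    exact this
  unfold uact
  rw [hM, Matrix.smul_mulVec, Matrix.one_mulVec]

theorem center_of_chk (l : List ℕ) (h : scalChk l = true) :
    (l.map (fun k => gS (Cfsg.Agent.Helper28.U6T.gen k))).prod ∈ Subgroup.center ↥(Cfsg.SU 6 GF4 2) := by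
  obtain ⟨s, hs, hc⟩ : ∃ s, (s = 1 ∨ s = 2 ∨ s = 3) ∧ sclChk s l = true := by
    unfold scalChk at h
    rw [Bool.or_eq_true, Bool.or_eq_true] at h
    rcases h with h | h | h
    · exact ⟨1, Or.inl rfl, h⟩
    · exact ⟨2, Or.inr (Or.inl rfl), h⟩
    · exact ⟨3, Or.inr (Or.inr rfl), h⟩
  rw [Subgroup.mem_center_iff]
  intro g
  rw [uact_eq_iff]
  intro y
  rw [uact_mul, uact_mul, scal_of_chk s hs l hc, scal_of_chk s hs l hc, uact_smul]

/-- the images of the generators in `PSU(6, 2)` -/
noncomputable def vB (s : P.Gen) : Cfsg.PSU 6 GF4 2 :=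
  QuotientGroup.mk' (Subgroup.center ↥(Cfsg.SU 6 GF4 2)) (gS s)

theorem vB_sq (s : P.Gen) : vB s * vB s = 1 := by
  unfold vB
  rw [← map_mul, gS_sq, map_one]

theorem prod_vB (l : List ℕ) :
    (l.map (fun k => vB (Cfsg.Agent.Helper28.U6T.gen k))).prod =
      QuotientGroup.mk' (Subgroup.center ↥(Cfsg.SU 6 GF4 2))
        ((l.map (fun k => gS (Cfsg.Agent.Helper28.U6T.gen k))).prod) := by
  induction l with
  | nil => rw [List.map_nil, List.prod_nil, List.map_nil, List.prod_nil, map_one]
  | cons a l ih =>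
    rw [List.map_cons, List.prod_cons, ih, List.map_cons, List.prod_cons, map_mul]
    rfl

theorem prod_vB_one (l : List ℕ) (h : scalChk l = true) :
    (l.map (fun k => vB (Cfsg.Agent.Helper28.U6T.gen k))).prod = 1 := by
  rw [prod_vB]
  exact (QuotientGroup.eq_one_iff _).mpr (center_of_chk l h)

theorem relChkS1 : listAll (Cfsg.Agent.Helper28.U6T.pairs.map
    (fun p => Cfsg.Agent.Helper28.pairWord p.1 p.2.1 p.2.2)) scalChk = true := by decide +kernel

theorem relChkS2 : listAll Cfsg.Agent.Helper28.U6T.extraL scalChk = true := by decide +kernel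

/-- the homomorphism to `PSU(6, 2)` -/
noncomputable def beta : P →* Cfsg.PSU 6 GF4 2 :=
  PresentedGroup.toGroup (Cfsg.Agent.Helper28.U6T.cert.lift_rel vB vB_sq
    (fun l hl => by
      rcases List.mem_append.mp hl with h | h
      · exact prod_vB_one l ((listAll_iff _ _).mp relChkS1 l h)
      · exact prod_vB_one l ((listAll_iff _ _).mp relChkS2 l h)))

theorem beta_of (s : P.Gen) : beta (PresentedGroup.of s) = vB s := PresentedGroup.toGroup.of _

theorem beta_word (l : List ℕ) (hl : ∀ a ∈ l, a < 8) :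
    beta ((l.map (coxVal P.edges P.extra Cfsg.Agent.Helper28.U6T.gen 8)).prod) =
      (l.map (fun k => vB (Cfsg.Agent.Helper28.U6T.gen k))).prod := by
  induction l with
  | nil => rw [List.map_nil, List.prod_nil, map_one, List.map_nil, List.prod_nil]
  | cons a l ih =>
    rw [List.map_cons, List.prod_cons, map_mul, ih (fun b hb => hl b (List.mem_cons_of_mem _ hb)),
      List.map_cons, List.prod_cons]
    congr 1
    unfold coxVal
    rw [if_pos (hl a List.mem_cons_self), beta_of]

/-! ### the transvections generate -/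

/-- the subgroup generated by the eight transvections -/
noncomputable abbrev RS : Subgroup ↥(Cfsg.SU 6 GF4 2) := Subgroup.closure (Set.range gS)

theorem gS_mem (s : P.Gen) : gS s ∈ RS := Subgroup.subset_closure ⟨s, rfl⟩

/-- a field element is zero -/
def isZ : GF4 → Bool
  | .z => true
  | _ => false

theorem isZ_iff (a : GF4) : isZ a = true ↔ a = 0 := by cases a <;> decide

/-- the check of the tree at a position -/
noncomputable def orbPt (t : ℕ) : Bool :=
  or (and (Nat.beq t 0) (Nat.beq (iov 0) 144))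
    (and (Nat.blt (iotp t) t) (and (Nat.blt (iotw t) 8) (Nat.beq (stepV (iotw t) (iov (iotp t))) (iov t))))

/-- the check at a code: zero, or not isotropic, or in the list -/
noncomputable def isoPt (c : ℕ) : Bool :=
  or (or (Nat.beq c 0) (not (isZ (hm (vecOf c) (vecOf c)))))
    (and (Nat.blt (iop c) 2079) (Nat.beq (iov (iop c)) c))

theorem orb_all : ∀ t, t < 2079 → orbPt t = true := (allBelow_iff 2079 orbPt).mp (by decide +kernel)

theorem iso_all : ∀ c, c < 4096 → isoPt c = true := (allBelow_iff 4096 isoPt).mp (by decide +kernel)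

theorem root_vec : vecOf 144 = vecG P.Gen.c := by decide

theorem reach (t : ℕ) (ht : t < 2079) : utv hF4 (toV (vecOf (iov t))) 1 ∈ RS := by
  induction t using Nat.strong_induction_on with
  | _ t ih =>
    have h := orb_all t ht
    unfold orbPt at h
    rw [Bool.or_eq_true] at h
    rcases h with h | h
    · rw [Bool.and_eq_true] at h
      rw [Nat.eq_of_beq_eq_true h.1, Nat.eq_of_beq_eq_true h.2, root_vec]
      exact gS_mem P.Gen.c
    · simp only [Bool.and_eq_true] at h
      obtain ⟨h1, h2, h3⟩ := h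
      have hp : iotp t < t := Nat.blt_eq.mp h1
      have h4 := ih (iotp t) hp (lt_trans hp ht)
      have e : toV (vecOf (iov t)) = uact (gS (Cfsg.Agent.Helper28.U6T.gen (iotw t))) (toV (vecOf (iov (iotp t)))) := by
        rw [uact_gS, ← Nat.eq_of_beq_eq_true h3]
        show toV (vecOf (codeOf (tvm (vk (iotw t)) (vecOf (iov (iotp t)))))) = _
        rw [vecOf_codeOf]
        rfl
      rw [e, ← utv_conj]
      exact Subgroup.mul_mem _ (Subgroup.mul_mem _ (gS_mem _) h4) (Subgroup.inv_mem _ (gS_mem _))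

theorem utv_mem (v : Fin 6 → GF4) (hv0 : v ≠ 0) (hv : Cfsg.hermForm 6 GF4 2 v v = 0) :
    utv hF4 v 1 ∈ RS := by
  have h := iso_all (codeOf (ofFun v)) (codeOf_lt _)
  unfold isoPt at h
  rw [vecOf_codeOf, Bool.or_eq_true, Bool.or_eq_true] at h
  rcases h with (h | h) | h
  · exfalso
    apply hv0
    have e : ofFun v = vecOf 0 := by
      rw [← vecOf_codeOf (ofFun v), Nat.eq_of_beq_eq_true h]
    rw [← toV_ofFun v, e]
    funext i
    fin_cases i <;> rfl
  · exfalso
    rw [← toV_ofFun v, herm_toV] at hv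
    rw [hv] at h
    exact absurd h (by decide)
  · rw [Bool.and_eq_true] at h
    have h1 := reach _ (Nat.blt_eq.mp h.1)
    rw [Nat.eq_of_beq_eq_true h.2, vecOf_codeOf, toV_ofFun] at h1
    exact h1

theorem RS_top : RS = ⊤ := by
  rw [eq_top_iff, ← iSup_uroot hF4 (by norm_num) (by decide)]
  apply iSup_le
  intro p
  rw [urep_spec p]
  intro g hg
  obtain ⟨c, hc, rfl⟩ := (mem_uroot hF4 _ g).mp hg
  rw [frobQ_apply] at hc
  cases c
  · have e : utv hF4 (urep p) GF4.z = 1 := utv_zero_right hF4 _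
    rw [e]
    exact Subgroup.one_mem _
  · exact utv_mem _ (urep_ne_zero p) (urep_iso p)
  · exact absurd hc (by decide)
  · exact absurd hc (by decide)

theorem beta_surjective : Function.Surjective beta := by
  rw [← MonoidHom.range_eq_top, beta, toGroup_range]
  have e : Set.range vB = (QuotientGroup.mk' (Subgroup.center ↥(Cfsg.SU 6 GF4 2))) '' Set.range gS := by
    rw [← Set.range_comp]
    rfl
  rw [e, ← MonoidHom.map_closure]
  have e2 : Subgroup.closure (Set.range gS) = ⊤ := RS_top
  rw [e2, ← MonoidHom.range_eq_map, MonoidHom.range_eq_top]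
  exact QuotientGroup.mk'_surjective _

end Cfsg.Agent.Helper28.U6
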