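import Cfsg.Agent.Helper28.U6.Fi
import Cfsg.Agent.Helper28.U6.SU
import Cfsg.Agent.Helper28.Grp3
import Cfsg.Agent.S0283
import Cfsg.Agent.S0280

/-!
# The subgroup `⟨a, c, …, i, (abcdeh)^5⟩` of Fi22 is a non-split double cover of `PSU(6, 2)` (helper28)

The presented group `P` is isomorphic to this subgroup `HΩ` (`isoH`) and maps onto `PSU(6, 2)` (`beta`).
It is perfect, so `HΩ` is perfect; the generator `a` is a central involution of `HΩ`, it is the image of
the word `(h d e f x g)^5`, which `beta` kills; and the kernel of `HΩ → PSU(6, 2)` has order 2 by the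
orders of the groups (`Cfsg.Agent.S0280.result`).  The centre of `PSU(6, 2)` is trivial as this group is
simple (`Cfsg.Agent.S0283.result`) and perfect.
-/

set_option autoImplicit false

namespace Cfsg.Agent.Helper28.U6

open Cfsg.Agent.Helper28 Cfsg.Spor

/-! ### `P` is perfect -/

theorem ab_all (s : P.Gen) :
    Abelianization.of (PresentedGroup.of s : P) = Abelianization.of (PresentedGroup.of P.Gen.c : P) := by
  have hd := cox_ab_edge P.edges P.extra P.Gen.c P.Gen.d (node _) (node _) (by decide)
  have he := cox_ab_edge P.edges P.extra P.Gen.d P.Gen.e (node _) (node _) (by decide)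
  have hf := cox_ab_edge P.edges P.extra P.Gen.e P.Gen.f (node _) (node _) (by decide)
  have hg := cox_ab_edge P.edges P.extra P.Gen.f P.Gen.g (node _) (node _) (by decide)
  have hh := cox_ab_edge P.edges P.extra P.Gen.d P.Gen.h (node _) (node _) (by decide)
  have hi := cox_ab_edge P.edges P.extra P.Gen.h P.Gen.i (node _) (node _) (by decide)
  have hx := cox_ab_edge P.edges P.extra P.Gen.f P.Gen.x (node _) (node _) (by decide)
  cases s
  · rw [← hx, ← hf, ← he, ← hd]
  · rfl
  · rw [← hd]
  · rw [← he, ← hd]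
  · rw [← hf, ← he, ← hd]
  · rw [← hg, ← hf, ← he, ← hd]
  · rw [← hh, ← hd]
  · rw [← hi, ← hh, ← hd]

theorem ab_one (s : P.Gen) : Abelianization.of (PresentedGroup.of s : P) = 1 := by
  rw [ab_all s]
  have h2 := cox_ab_sq P.edges P.extra P.Gen.c (node _)
  have hrel : (PresentedGroup.mk (coxRelators P.edges ∪ {r | r ∈ P.extra})
      ((P.c * P.d * P.e * P.f * P.g * P.h * P.i) ^ 9) : P) = 1 :=
    PresentedGroup.one_of_mem (Or.inr (by simp [P.extra]))
  have h63 := congrArg (Abelianization.of : P →* Abelianization P) hrel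
  rw [map_pow, map_mul, map_mul, map_mul, map_mul, map_mul, map_mul, map_one] at h63
  have h63' : (Abelianization.of (PresentedGroup.of P.Gen.c : P) *
      Abelianization.of (PresentedGroup.of P.Gen.d : P) *
      Abelianization.of (PresentedGroup.of P.Gen.e : P) *
      Abelianization.of (PresentedGroup.of P.Gen.f : P) *
      Abelianization.of (PresentedGroup.of P.Gen.g : P) *
      Abelianization.of (PresentedGroup.of P.Gen.h : P) *
      Abelianization.of (PresentedGroup.of P.Gen.i : P)) ^ 9 = 1 := h63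
  rw [ab_all P.Gen.d, ab_all P.Gen.e, ab_all P.Gen.f, ab_all P.Gen.g, ab_all P.Gen.h,
    ab_all P.Gen.i] at h63'
  clear h63
  generalize Abelianization.of (PresentedGroup.of P.Gen.c : P) = v at *
  have h2' : v ^ 2 = 1 := by rw [pow_two]; exact h2
  calc v = (v ^ 2) ^ 31 * v := by rw [h2', one_pow, one_mul]
    _ = (v * v * v * v * v * v * v) ^ 9 := by
      rw [← pow_mul, ← pow_succ]
      have : v * v * v * v * v * v * v = v ^ 7 := by
        simp only [pow_succ, pow_zero, one_mul]
      rw [this, ← pow_mul]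
    _ = 1 := h63'

theorem perfect_P : commutator P = ⊤ :=
  commutator_eq_top_of_gens _ ab_one

/-! ### the unitary group -/

theorem card_PSU : Nat.card (Cfsg.PSU 6 GF4 2) = 9196830720 := by
  have h := Cfsg.Agent.S0280.result hF4 6 (by norm_num)
  have e : 2 ^ (6 * (6 - 1) / 2) * ∏ i ∈ Finset.range 6, (if Even i then 2 ^ (i + 1) + 1 else 2 ^ (i + 1) - 1) =
      Nat.gcd 6 (2 + 1) * ((2 + 1) * 9196830720) := by
    decide
  rw [e] at h
  have h3 : (0 : ℕ) < 2 + 1 := by norm_num
  have hg : 0 < Nat.gcd 6 (2 + 1) := by decide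
  exact Nat.eq_of_mul_eq_mul_left h3 (Nat.eq_of_mul_eq_mul_left hg h)

theorem center_PSU : Subgroup.center (Cfsg.PSU 6 GF4 2) = ⊥ := by
  have : IsSimpleGroup (Cfsg.PSU 6 GF4 2) := Cfsg.Agent.S0283.result hF4 6 (by norm_num) (by decide)
  exact center_eq_bot_of_simple_perfect (commutator_top_of_surjective beta beta_surjective perfect_P)

/-! ### the double cover -/

/-- the homomorphism from the subgroup of Fi22 to `PSU(6, 2)` -/
noncomputable def piH : F22.HΩ →* Cfsg.PSU 6 GF4 2 := beta.comp isoH.symm.toMonoidHom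

theorem piH_surjective : Function.Surjective piH :=
  beta_surjective.comp isoH.symm.surjective

/-- the generator `a` as an element of the subgroup -/
noncomputable def zH : F22.HΩ := ⟨PresentedGroup.of Fi22.Gen.a, F22.a_mem⟩

theorem zH_sq : zH * zH = 1 :=
  Subtype.ext (cox_sq Fi22.edges Fi22.extra Fi22.Gen.a (F22.node _))

theorem a_ne_one : (PresentedGroup.of Fi22.Gen.a : Fi22) ≠ 1 := by
  intro h
  have h1 := Cfsg.Agent.Helper28.C1687.cert.perm_val 0 (by decide) ⟨1, by decide⟩
  rw [coxVal_of (gen := Cfsg.Agent.Helper28.C1687.gen) (D := Cfsg.Agent.Helper28.C1687.D) 0 (by decide)] at h1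
  have h2 : (PresentedGroup.of (Cfsg.Agent.Helper28.C1687.gen 0) : Fi22) = 1 := h
  rw [h2, map_one] at h1
  exact absurd h1.symm (by decide +kernel)

theorem zH_ne_one : zH ≠ 1 := fun h => a_ne_one (congrArg Subtype.val h)

theorem zH_central (c : F22.HΩ) : c * zH = zH * c :=
  Subtype.ext (F22.a_central c.1 c.2)

theorem isoH_z : isoH z = zH := Subtype.ext ((isoH_val z).trans alpha_z)

theorem beta_z : beta z = 1 := by
  unfold z
  show beta ((zP.map (coxVal P.edges P.extra Cfsg.Agent.Helper28.U6T.gen 8)).prod) = 1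
  rw [beta_word zP (by decide)]
  exact prod_vB_one zP (by decide +kernel)

theorem piH_z : piH zH = 1 := by
  have e : isoH.symm zH = z := by rw [← isoH_z, MulEquiv.symm_apply_apply]
  show beta (isoH.symm zH) = 1
  rw [e, beta_z]

theorem piH_ker : piH.ker = Subgroup.zpowers zH := by
  have hfin : Finite F22.HΩ := Nat.finite_of_card_ne_zero (by rw [card_HΩ]; norm_num)
  have h1 := piH.ker.card_mul_index
  rw [Subgroup.index_ker, MonoidHom.range_eq_top.mpr piH_surjective, Subgroup.card_top, card_PSU, card_HΩ] at h1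
  have hk : Nat.card piH.ker = 2 := by
    have e : (18393661440 : ℕ) = 2 * 9196830720 := by norm_num
    rw [e] at h1
    exact Nat.eq_of_mul_eq_mul_right (by norm_num) h1
  have ho : orderOf zH = 2 := orderOf_eq_prime (by rw [pow_two]; exact zH_sq) zH_ne_one
  symm
  apply Subgroup.eq_of_le_of_card_ge
  · rw [Subgroup.zpowers_le]
    exact piH_z
  · rw [hk, Nat.card_zpowers, ho]

theorem hperf : commutator F22.HΩ = ⊤ :=
  commutator_top_of_surjective isoH.toMonoidHom isoH.surjective perfect_P

/-- The subgroup `⟨a, c, …, i, (abcdeh)^5⟩` of Fi22 is a non-split double cover of `PSU(6, 2)`. -/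
theorem main : Cfsg.IsNonsplitDoubleCover F22.HΩ (Cfsg.PSU 6 GF4 2) :=
  nsdc_of_hom center_PSU hperf zH zH_sq zH_ne_one zH_central piH piH_surjective piH_ker

end Cfsg.Agent.Helper28.U6
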