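import Cfsg.Agent.Helper28.U6.Order
import Cfsg.Agent.Helper28.F22.Words
import Cfsg.Agent.Helper28.TCH

/-!
# The presented group `P` is the subgroup `2.U6(2)` of the presented group Fi22 (helper28)

`P` maps to Fi22: `c, …, i` to the generators with these names and `x` to the conjugate of `a` by
`b c d h e d c b`; the relators are checked on a base of the permutation representation of degree 3510.
The image is the subgroup `HΩ` generated by `a, c, …, i, (abcdeh)^5`, of index 3510; comparing orders,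
`P → HΩ` is an isomorphism.
-/

set_option autoImplicit false

namespace Cfsg.Agent.Helper28.U6

open Cfsg.Agent.Helper28 Cfsg.Spor

/-- the words of the generators of `P` in Fi22 -/
def fiW : P.Gen → List ℕ
  | .x => [1, 2, 3, 7, 4, 3, 2, 1, 0, 1, 2, 3, 4, 7, 3, 2, 1]
  | .c => [2]
  | .d => [3]
  | .e => [4]
  | .f => [5]
  | .g => [6]
  | .h => [7]
  | .i => [8]

/-- the word of the generator with a given number -/
def fiN (k : ℕ) : List ℕ := fiW (Cfsg.Agent.Helper28.U6T.gen k)

/-- a word in the generators of `P` as a word in the generators of Fi22 -/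
noncomputable def sub (l : List ℕ) : List ℕ :=
  List.rec (motive := fun _ => List ℕ) [] (fun k _ ih => fiN k ++ ih) l

theorem sub_nil : sub [] = [] := rfl

theorem sub_cons (k : ℕ) (l : List ℕ) : sub (k :: l) = fiN k ++ sub l := rfl

/-- the images of the generators of `P` -/
noncomputable def vF (x : P.Gen) : Fi22 := F22.wv (fiW x)

theorem prod_vF (l : List ℕ) :
    (l.map (fun k => vF (Cfsg.Agent.Helper28.U6T.gen k))).prod = F22.wv (sub l) := by
  induction l with
  | nil => rfl
  | cons a l ih =>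
    rw [List.map_cons, List.prod_cons, ih, sub_cons, F22.wv_append]
    rfl

/-- a word in the generators of `P` is trivial in Fi22 -/
noncomputable def fiChk (l : List ℕ) : Bool :=
  and (letChk Cfsg.Agent.Helper28.C1687.D.jc (sub l))
    (eqBase Cfsg.Agent.Helper28.C1687.T (sub l) []
      [Cfsg.Agent.Helper28.F22L.ov5 0, Cfsg.Agent.Helper28.F22L.ov4 0,
        Cfsg.Agent.Helper28.F22L.ov3 0, Cfsg.Agent.Helper28.F22L.ov2 0, 0])

theorem wv_one_of_chk (l : List ℕ) (h : fiChk l = true) : F22.wv (sub l) = 1 := by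
  unfold fiChk at h
  rw [Bool.and_eq_true] at h
  exact F22.wv_eq (sub l) [] h.1 rfl h.2

theorem relChkF1 : listAll (Cfsg.Agent.Helper28.U6T.pairs.map
    (fun p => Cfsg.Agent.Helper28.pairWord p.1 p.2.1 p.2.2)) fiChk = true := by decide +kernel

theorem relChkF2 : listAll Cfsg.Agent.Helper28.U6T.extraL fiChk = true := by decide +kernel

theorem vF_sq (x : P.Gen) : vF x * vF x = 1 := by
  unfold vF
  rw [← F22.wv_append]
  cases x <;> exact F22.wv_eq _ [] (by decide +kernel) rfl (by decide +kernel)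

/-- the homomorphism to Fi22 -/
noncomputable def alpha : P →* Fi22 :=
  PresentedGroup.toGroup (Cfsg.Agent.Helper28.U6T.cert.lift_rel vF vF_sq
    (fun l hl => by
      rw [prod_vF]
      rcases List.mem_append.mp hl with h | h
      · exact wv_one_of_chk l ((listAll_iff _ _).mp relChkF1 l h)
      · exact wv_one_of_chk l ((listAll_iff _ _).mp relChkF2 l h)))

theorem alpha_of (x : P.Gen) : alpha (PresentedGroup.of x) = vF x := PresentedGroup.toGroup.of _

/-- the value of a word in the generators of `P` -/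
noncomputable abbrev pv (l : List ℕ) : P :=
  (l.map (coxVal P.edges P.extra Cfsg.Agent.Helper28.U6T.gen 8)).prod

theorem alpha_pv (l : List ℕ) (hl : ∀ a ∈ l, a < 8) : alpha (pv l) = F22.wv (sub l) := by
  induction l with
  | nil => rw [sub_nil]; exact map_one alpha
  | cons a l ih =>
    show alpha (((a :: l).map (coxVal P.edges P.extra Cfsg.Agent.Helper28.U6T.gen 8)).prod) = _
    rw [List.map_cons, List.prod_cons, map_mul]
    have h1 := ih (fun b hb => hl b (List.mem_cons_of_mem _ hb))
    rw [sub_cons, F22.wv_append, ← h1]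
    congr 1
    unfold coxVal
    rw [if_pos (hl a List.mem_cons_self), alpha_of]
    rfl

theorem range_eq : alpha.range = Subgroup.closure (Set.range vF) := toGroup_range _ _ _

theorem vF_mem (x : P.Gen) : vF x ∈ alpha.range := ⟨_, alpha_of x⟩

/-- the word `(abcdeh)^5` -/
def wW : List ℕ := [0, 1, 2, 3, 4, 7, 0, 1, 2, 3, 4, 7, 0, 1, 2, 3, 4, 7, 0, 1, 2, 3, 4, 7, 0, 1, 2, 3, 4, 7]

theorem wv_wW : F22.wv wW = PresentedGroup.mk (coxRelators Fi22.edges ∪ {r | r ∈ Fi22.extra})
    ((Fi22.a * Fi22.b * Fi22.c * Fi22.d * Fi22.e * Fi22.h) ^ 5) :=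
  Cfsg.Agent.Helper28.C1687.cert.wordVal _ _ Cfsg.Agent.Helper28.C1687.wS_8
    ((letChk_iff _ _).mp (by decide +kernel))

theorem gen_mem (k : ℕ) (hk : k < 9) (hk1 : k ≠ 1) : F22.wv [k] ∈ F22.HΩ := by
  rw [F22.wv_sing k hk]
  apply Subgroup.mem_map_of_mem
  apply Subgroup.subset_closure
  interval_cases k
  · simp [Cfsg.Agent.Helper28.C1687.gen]
  · exact absurd rfl hk1
  · simp [Cfsg.Agent.Helper28.C1687.gen]
  · simp [Cfsg.Agent.Helper28.C1687.gen]
  · simp [Cfsg.Agent.Helper28.C1687.gen]
  · simp [Cfsg.Agent.Helper28.C1687.gen]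
  · simp [Cfsg.Agent.Helper28.C1687.gen]
  · simp [Cfsg.Agent.Helper28.C1687.gen]
  · simp [Cfsg.Agent.Helper28.C1687.gen]

theorem wW_mem : F22.wv wW ∈ F22.HΩ := by
  rw [wv_wW]
  exact Subgroup.mem_map_of_mem _ (Subgroup.subset_closure (by simp))

/-- a word without the letter `b` has its value in `HΩ` -/
theorem wv_mem (l : List ℕ) (hl : ∀ k ∈ l, k < 9 ∧ k ≠ 1) : F22.wv l ∈ F22.HΩ := by
  induction l with
  | nil => exact Subgroup.one_mem _
  | cons a l ih =>
    have e : F22.wv (a :: l) = F22.wv [a] * F22.wv l := by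
      rw [← F22.wv_append]; rfl
    rw [e]
    exact Subgroup.mul_mem _ (gen_mem a (hl a List.mem_cons_self).1 (hl a List.mem_cons_self).2)
      (ih (fun k hk => hl k (List.mem_cons_of_mem _ hk)))

/-- the conjugate `x` of `a` is `(abcdeh)^5 a c y e h` with `y = (dhed) c (dehd)` -/
theorem x_mem : vF P.Gen.x ∈ F22.HΩ := by
  have h : vF P.Gen.x = F22.wv (wW ++ [0, 2, 3, 7, 4, 3, 2, 3, 4, 7, 3, 4, 7]) :=
    F22.wv_eq _ _ (by decide +kernel) (by decide +kernel) (by decide +kernel)
  rw [h, F22.wv_append]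
  exact Subgroup.mul_mem _ wW_mem (wv_mem _ (by decide))

theorem range_le : alpha.range ≤ F22.HΩ := by
  rw [range_eq]
  apply (Subgroup.closure_le _).mpr
  rintro _ ⟨x, rfl⟩
  cases x
  · exact x_mem
  · exact wv_mem [2] (by decide)
  · exact wv_mem [3] (by decide)
  · exact wv_mem [4] (by decide)
  · exact wv_mem [5] (by decide)
  · exact wv_mem [6] (by decide)
  · exact wv_mem [7] (by decide)
  · exact wv_mem [8] (by decide)

/-- the word `(h d e f x g)^5` in the generators of `P` -/
def zP : List ℕ := [6, 2, 3, 4, 0, 5, 6, 2, 3, 4, 0, 5, 6, 2, 3, 4, 0, 5, 6, 2, 3, 4, 0, 5, 6, 2, 3, 4, 0, 5]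

/-- the central involution of `P` -/
noncomputable def z : P := pv zP

theorem alpha_z : alpha z = PresentedGroup.of Fi22.Gen.a := by
  unfold z
  rw [alpha_pv zP (by decide)]
  have h : F22.wv (sub zP) = F22.wv [0] :=
    F22.wv_eq _ _ (by decide +kernel) (by decide +kernel) (by decide +kernel)
  rw [h, F22.wv_sing 0 (by decide)]
  rfl

theorem wW_mem_range : F22.wv wW ∈ alpha.range := by
  have h : F22.wv wW = F22.wv (sub (zP ++ [0, 1, 2, 6, 3, 2, 1, 2, 3, 6, 2, 3, 6])) :=
    F22.wv_eq _ _ (by decide +kernel) (by decide +kernel) (by decide +kernel)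
  rw [h, ← alpha_pv _ (by decide)]
  exact ⟨_, rfl⟩

theorem le_range : F22.HΩ ≤ alpha.range := by
  unfold F22.HΩ
  rw [MonoidHom.map_closure]
  apply (Subgroup.closure_le _).mpr
  rintro _ ⟨s, hs, rfl⟩
  simp only [Set.mem_insert_iff, Set.mem_singleton_iff] at hs
  rcases hs with rfl | rfl | rfl | rfl | rfl | rfl | rfl | rfl | rfl
  · exact ⟨z, alpha_z⟩
  · exact ⟨PresentedGroup.of P.Gen.c, (alpha_of _).trans (F22.wv_sing 2 (by decide))⟩
  · exact ⟨PresentedGroup.of P.Gen.d, (alpha_of _).trans (F22.wv_sing 3 (by decide))⟩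
  · exact ⟨PresentedGroup.of P.Gen.e, (alpha_of _).trans (F22.wv_sing 4 (by decide))⟩
  · exact ⟨PresentedGroup.of P.Gen.f, (alpha_of _).trans (F22.wv_sing 5 (by decide))⟩
  · exact ⟨PresentedGroup.of P.Gen.g, (alpha_of _).trans (F22.wv_sing 6 (by decide))⟩
  · exact ⟨PresentedGroup.of P.Gen.h, (alpha_of _).trans (F22.wv_sing 7 (by decide))⟩
  · exact ⟨PresentedGroup.of P.Gen.i, (alpha_of _).trans (F22.wv_sing 8 (by decide))⟩
  · rw [SetLike.mem_coe, ← wv_wW]
    exact wW_mem_range

theorem range_alpha : alpha.range = F22.HΩ := le_antisymm range_le le_range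

theorem card_HΩ : Nat.card F22.HΩ = 18393661440 := by
  have h := F22.HΩ.card_mul_index
  have hidx : F22.HΩ.index = 3510 := Cfsg.Agent.Helper28.C1687.cert.index_eq
  rw [hidx, F22.card_eq] at h
  have e : (64561751654400 : ℕ) = 18393661440 * 3510 := by norm_num
  rw [e] at h
  exact Nat.eq_of_mul_eq_mul_right (by norm_num) h

theorem finite_P : Finite P := card_le.1

theorem card_P : Nat.card P = 18393661440 := by
  have := finite_P
  apply le_antisymm
  · have h := card_le.2
    have e : 12672 * (2016 * (720)) = 18393661440 := by norm_num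
    rw [e] at h
    exact h
  · have h := Nat.card_le_card_of_surjective alpha.rangeRestrict alpha.rangeRestrict_surjective
    rw [range_alpha, card_HΩ] at h
    exact h

theorem alpha_injective : Function.Injective alpha := by
  have := finite_P
  have hbij : Function.Bijective alpha.rangeRestrict := by
    rw [Nat.bijective_iff_surjective_and_card]
    exact ⟨alpha.rangeRestrict_surjective, by rw [range_alpha, card_HΩ]; exact card_P⟩
  intro x y h
  apply hbij.1
  exact Subtype.ext h

/-- `P` is the subgroup `HΩ` of Fi22 -/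
noncomputable def isoH : P ≃* F22.HΩ :=
  (MonoidHom.ofInjective alpha_injective).trans (MulEquiv.subgroupCongr range_alpha)

theorem isoH_val (p : P) : ((isoH p : F22.HΩ) : Fi22) = alpha p := rfl

end Cfsg.Agent.Helper28.U6
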