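import Cfsg.Agent.Helper28.CoxG
import Cfsg.Agent.Helper28.Grp
import Cfsg.Agent.Helper28.U6T.Cert
import Cfsg.Agent.Helper28.U6R1.Cert
import Cfsg.Agent.Helper28.U6R2.Cert

/-! The order of the presented group None is at most the expected one: a tower of subgroups (generated). -/

set_option autoImplicit false

namespace Cfsg.Agent.Helper28.U6

theorem node (x : Cfsg.Agent.Helper28.U6.P.Gen) : x ∈ Cfsg.Spor.coxNodes Cfsg.Agent.Helper28.U6.P.edges := Cfsg.Agent.Helper28.U6T.cert.hnode x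

theorem relE1_0 : FreeGroup.lift (fun y => (PresentedGroup.of (Cfsg.Agent.Helper28.U6.R1.inc y) : Cfsg.Agent.Helper28.U6.P)) ((Cfsg.Agent.Helper28.U6.R1.c * Cfsg.Agent.Helper28.U6.R1.d * Cfsg.Agent.Helper28.U6.R1.e * Cfsg.Agent.Helper28.U6.R1.f * Cfsg.Agent.Helper28.U6.R1.g * Cfsg.Agent.Helper28.U6.R1.h * Cfsg.Agent.Helper28.U6.R1.i) ^ 9) = 1 := by
  rw [Cfsg.Agent.Helper28.lift_of_comp]
  have e : FreeGroup.map Cfsg.Agent.Helper28.U6.R1.inc ((Cfsg.Agent.Helper28.U6.R1.c * Cfsg.Agent.Helper28.U6.R1.d * Cfsg.Agent.Helper28.U6.R1.e * Cfsg.Agent.Helper28.U6.R1.f * Cfsg.Agent.Helper28.U6.R1.g * Cfsg.Agent.Helper28.U6.R1.h * Cfsg.Agent.Helper28.U6.R1.i) ^ 9) = (Cfsg.Agent.Helper28.U6.P.c * Cfsg.Agent.Helper28.U6.P.d * Cfsg.Agent.Helper28.U6.P.e * Cfsg.Agent.Helper28.U6.P.f * Cfsg.Agent.Helper28.U6.P.g * Cfsg.Agent.Helper28.U6.P.h * Cfsg.Agent.Helper28.U6.P.i) ^ 9 := by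
    simp only [map_pow, map_mul, map_inv, FreeGroup.map.of, Cfsg.Agent.Helper28.U6.R1.inc]
  rw [e]
  exact PresentedGroup.one_of_mem (Or.inr (by simp [Cfsg.Agent.Helper28.U6.P.extra]))

theorem rel1 : ∀ r ∈ (Cfsg.Spor.coxRelators Cfsg.Agent.Helper28.U6.R1.edges ∪ {r | r ∈ Cfsg.Agent.Helper28.U6.R1.extra}), FreeGroup.lift (fun y => (PresentedGroup.of (Cfsg.Agent.Helper28.U6.R1.inc y) : Cfsg.Agent.Helper28.U6.P)) r = 1 := by
  intro r hr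
  rcases hr with ⟨x, _, y, _, rfl⟩ | hr
  · rw [map_pow, map_mul, FreeGroup.lift_apply_of, FreeGroup.lift_apply_of]
    have e : Cfsg.Spor.coxLabel Cfsg.Agent.Helper28.U6.R1.edges x y = Cfsg.Spor.coxLabel Cfsg.Agent.Helper28.U6.P.edges (Cfsg.Agent.Helper28.U6.R1.inc x) (Cfsg.Agent.Helper28.U6.R1.inc y) := by
      cases x <;> cases y <;> decide
    rw [e]
    exact Cfsg.Agent.Helper28.cox_pair Cfsg.Agent.Helper28.U6.P.edges Cfsg.Agent.Helper28.U6.P.extra _ _ (node _) (node _)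
  · have hr' : r ∈ Cfsg.Agent.Helper28.U6.R1.extra := hr
    simp only [Cfsg.Agent.Helper28.U6.R1.extra, List.mem_cons, List.not_mem_nil, or_false] at hr'
    rcases hr' with rfl
    · exact relE1_0

/-- the homomorphism from the auxiliary group -/
noncomputable def f1 : Cfsg.Spor.CoxPresented Cfsg.Agent.Helper28.U6.R1.Gen Cfsg.Agent.Helper28.U6.R1.edges Cfsg.Agent.Helper28.U6.R1.extra →* Cfsg.Agent.Helper28.U6.P :=
  PresentedGroup.toGroup rel1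

theorem range1 : f1.range = (Subgroup.closure ({Cfsg.Agent.Helper28.U6.P.c, Cfsg.Agent.Helper28.U6.P.d, Cfsg.Agent.Helper28.U6.P.e, Cfsg.Agent.Helper28.U6.P.f, Cfsg.Agent.Helper28.U6.P.g, Cfsg.Agent.Helper28.U6.P.h, Cfsg.Agent.Helper28.U6.P.i} : Set (FreeGroup Cfsg.Agent.Helper28.U6.P.Gen))).map (PresentedGroup.mk (Cfsg.Spor.coxRelators Cfsg.Agent.Helper28.U6.P.edges ∪ {r | r ∈ Cfsg.Agent.Helper28.U6.P.extra})) := by
  rw [f1, Cfsg.Agent.Helper28.toGroup_range, MonoidHom.map_closure]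
  congr 1
  ext z
  constructor
  · rintro ⟨y, rfl⟩
    cases y
    · exact ⟨Cfsg.Agent.Helper28.U6.P.c, by simp, rfl⟩
    · exact ⟨Cfsg.Agent.Helper28.U6.P.d, by simp, rfl⟩
    · exact ⟨Cfsg.Agent.Helper28.U6.P.e, by simp, rfl⟩
    · exact ⟨Cfsg.Agent.Helper28.U6.P.f, by simp, rfl⟩
    · exact ⟨Cfsg.Agent.Helper28.U6.P.g, by simp, rfl⟩
    · exact ⟨Cfsg.Agent.Helper28.U6.P.h, by simp, rfl⟩
    · exact ⟨Cfsg.Agent.Helper28.U6.P.i, by simp, rfl⟩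
  · rintro ⟨s, hs, rfl⟩
    simp only [Set.mem_insert_iff, Set.mem_singleton_iff] at hs
    rcases hs with rfl | rfl | rfl | rfl | rfl | rfl | rfl
    · exact ⟨Cfsg.Agent.Helper28.U6.R1.Gen.c, rfl⟩
    · exact ⟨Cfsg.Agent.Helper28.U6.R1.Gen.d, rfl⟩
    · exact ⟨Cfsg.Agent.Helper28.U6.R1.Gen.e, rfl⟩
    · exact ⟨Cfsg.Agent.Helper28.U6.R1.Gen.f, rfl⟩
    · exact ⟨Cfsg.Agent.Helper28.U6.R1.Gen.g, rfl⟩
    · exact ⟨Cfsg.Agent.Helper28.U6.R1.Gen.h, rfl⟩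
    · exact ⟨Cfsg.Agent.Helper28.U6.R1.Gen.i, rfl⟩

theorem rel2 : ∀ r ∈ (Cfsg.Spor.coxRelators Cfsg.Agent.Helper28.U6.R2.edges ∪ {r | r ∈ Cfsg.Agent.Helper28.U6.R2.extra}), FreeGroup.lift (fun y => (PresentedGroup.of (Cfsg.Agent.Helper28.U6.R2.inc y) : Cfsg.Agent.Helper28.U6.P)) r = 1 := by
  intro r hr
  rcases hr with ⟨x, _, y, _, rfl⟩ | hr
  · rw [map_pow, map_mul, FreeGroup.lift_apply_of, FreeGroup.lift_apply_of]
    have e : Cfsg.Spor.coxLabel Cfsg.Agent.Helper28.U6.R2.edges x y = Cfsg.Spor.coxLabel Cfsg.Agent.Helper28.U6.P.edges (Cfsg.Agent.Helper28.U6.R2.inc x) (Cfsg.Agent.Helper28.U6.R2.inc y) := by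
      cases x <;> cases y <;> decide
    rw [e]
    exact Cfsg.Agent.Helper28.cox_pair Cfsg.Agent.Helper28.U6.P.edges Cfsg.Agent.Helper28.U6.P.extra _ _ (node _) (node _)
  · have hr' : r ∈ Cfsg.Agent.Helper28.U6.R2.extra := hr
    exact absurd hr' (by simp [Cfsg.Agent.Helper28.U6.R2.extra])

/-- the homomorphism from the auxiliary group -/
noncomputable def f2 : Cfsg.Spor.CoxPresented Cfsg.Agent.Helper28.U6.R2.Gen Cfsg.Agent.Helper28.U6.R2.edges Cfsg.Agent.Helper28.U6.R2.extra →* Cfsg.Agent.Helper28.U6.P :=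
  PresentedGroup.toGroup rel2

theorem range2 : ((Subgroup.closure ({Cfsg.Agent.Helper28.U6.R1.c, Cfsg.Agent.Helper28.U6.R1.d, Cfsg.Agent.Helper28.U6.R1.e, Cfsg.Agent.Helper28.U6.R1.f, Cfsg.Agent.Helper28.U6.R1.g} : Set (FreeGroup Cfsg.Agent.Helper28.U6.R1.Gen))).map (PresentedGroup.mk (Cfsg.Spor.coxRelators Cfsg.Agent.Helper28.U6.R1.edges ∪ {r | r ∈ Cfsg.Agent.Helper28.U6.R1.extra}))).map f1 = f2.range := by
  rw [f1, f2, Cfsg.Agent.Helper28.toGroup_range, Cfsg.Agent.Helper28.toGroup_map_closure]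
  congr 1
  ext z
  constructor
  · rintro ⟨s, hs, rfl⟩
    simp only [Set.mem_insert_iff, Set.mem_singleton_iff] at hs
    rcases hs with rfl | rfl | rfl | rfl | rfl
    · exact ⟨Cfsg.Agent.Helper28.U6.R2.Gen.c, (FreeGroup.lift_apply_of (f := (fun y => (PresentedGroup.of (Cfsg.Agent.Helper28.U6.R1.inc y) : Cfsg.Agent.Helper28.U6.P))) (x := Cfsg.Agent.Helper28.U6.R1.Gen.c)).symm⟩
    · exact ⟨Cfsg.Agent.Helper28.U6.R2.Gen.d, (FreeGroup.lift_apply_of (f := (fun y => (PresentedGroup.of (Cfsg.Agent.Helper28.U6.R1.inc y) : Cfsg.Agent.Helper28.U6.P))) (x := Cfsg.Agent.Helper28.U6.R1.Gen.d)).symm⟩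
    · exact ⟨Cfsg.Agent.Helper28.U6.R2.Gen.e, (FreeGroup.lift_apply_of (f := (fun y => (PresentedGroup.of (Cfsg.Agent.Helper28.U6.R1.inc y) : Cfsg.Agent.Helper28.U6.P))) (x := Cfsg.Agent.Helper28.U6.R1.Gen.e)).symm⟩
    · exact ⟨Cfsg.Agent.Helper28.U6.R2.Gen.f, (FreeGroup.lift_apply_of (f := (fun y => (PresentedGroup.of (Cfsg.Agent.Helper28.U6.R1.inc y) : Cfsg.Agent.Helper28.U6.P))) (x := Cfsg.Agent.Helper28.U6.R1.Gen.f)).symm⟩
    · exact ⟨Cfsg.Agent.Helper28.U6.R2.Gen.g, (FreeGroup.lift_apply_of (f := (fun y => (PresentedGroup.of (Cfsg.Agent.Helper28.U6.R1.inc y) : Cfsg.Agent.Helper28.U6.P))) (x := Cfsg.Agent.Helper28.U6.R1.Gen.g)).symm⟩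
  · rintro ⟨y, rfl⟩
    cases y
    · exact ⟨Cfsg.Agent.Helper28.U6.R1.c, by simp, FreeGroup.lift_apply_of (f := (fun y => (PresentedGroup.of (Cfsg.Agent.Helper28.U6.R1.inc y) : Cfsg.Agent.Helper28.U6.P))) (x := Cfsg.Agent.Helper28.U6.R1.Gen.c)⟩
    · exact ⟨Cfsg.Agent.Helper28.U6.R1.d, by simp, FreeGroup.lift_apply_of (f := (fun y => (PresentedGroup.of (Cfsg.Agent.Helper28.U6.R1.inc y) : Cfsg.Agent.Helper28.U6.P))) (x := Cfsg.Agent.Helper28.U6.R1.Gen.d)⟩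
    · exact ⟨Cfsg.Agent.Helper28.U6.R1.e, by simp, FreeGroup.lift_apply_of (f := (fun y => (PresentedGroup.of (Cfsg.Agent.Helper28.U6.R1.inc y) : Cfsg.Agent.Helper28.U6.P))) (x := Cfsg.Agent.Helper28.U6.R1.Gen.e)⟩
    · exact ⟨Cfsg.Agent.Helper28.U6.R1.f, by simp, FreeGroup.lift_apply_of (f := (fun y => (PresentedGroup.of (Cfsg.Agent.Helper28.U6.R1.inc y) : Cfsg.Agent.Helper28.U6.P))) (x := Cfsg.Agent.Helper28.U6.R1.Gen.f)⟩
    · exact ⟨Cfsg.Agent.Helper28.U6.R1.g, by simp, FreeGroup.lift_apply_of (f := (fun y => (PresentedGroup.of (Cfsg.Agent.Helper28.U6.R1.inc y) : Cfsg.Agent.Helper28.U6.P))) (x := Cfsg.Agent.Helper28.U6.R1.Gen.g)⟩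

theorem bot2 : ((Subgroup.closure (∅ : Set (FreeGroup Cfsg.Agent.Helper28.U6.R2.Gen))).map (PresentedGroup.mk (Cfsg.Spor.coxRelators Cfsg.Agent.Helper28.U6.R2.edges ∪ {r | r ∈ Cfsg.Agent.Helper28.U6.R2.extra}))).map f2 = ⊥ := by
  rw [Subgroup.closure_empty, Subgroup.map_bot, Subgroup.map_bot]

theorem card2 : Finite f2.range ∧ Nat.card f2.range ≤ 720 := by
  have h := Cfsg.Agent.Helper28.card_range_le f2 ((Subgroup.closure (∅ : Set (FreeGroup Cfsg.Agent.Helper28.U6.R2.Gen))).map (PresentedGroup.mk (Cfsg.Spor.coxRelators Cfsg.Agent.Helper28.U6.R2.edges ∪ {r | r ∈ Cfsg.Agent.Helper28.U6.R2.extra}))) 720 Cfsg.Agent.Helper28.U6R2.cert.index_eq (by norm_num) (by rw [bot2]; infer_instance)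
  rw [bot2, Subgroup.card_bot, Nat.mul_one] at h
  exact h

theorem card1 : Finite f1.range ∧ Nat.card f1.range ≤ 2016 * (720) := by
  have h0 := card2
  have h := Cfsg.Agent.Helper28.card_range_le f1 ((Subgroup.closure ({Cfsg.Agent.Helper28.U6.R1.c, Cfsg.Agent.Helper28.U6.R1.d, Cfsg.Agent.Helper28.U6.R1.e, Cfsg.Agent.Helper28.U6.R1.f, Cfsg.Agent.Helper28.U6.R1.g} : Set (FreeGroup Cfsg.Agent.Helper28.U6.R1.Gen))).map (PresentedGroup.mk (Cfsg.Spor.coxRelators Cfsg.Agent.Helper28.U6.R1.edges ∪ {r | r ∈ Cfsg.Agent.Helper28.U6.R1.extra}))) 2016 Cfsg.Agent.Helper28.U6R1.cert.index_eq (by norm_num) (by rw [range2]; exact h0.1)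
  rw [range2] at h
  exact ⟨h.1, le_trans h.2 (Nat.mul_le_mul_left _ h0.2)⟩

/-- The presented group is finite, of order at most the expected one. -/
theorem card_le : Finite Cfsg.Agent.Helper28.U6.P ∧ Nat.card Cfsg.Agent.Helper28.U6.P ≤ 12672 * (2016 * (720)) := by
  have h1 := card1
  rw [range1] at h1
  have hmul := ((Subgroup.closure ({Cfsg.Agent.Helper28.U6.P.c, Cfsg.Agent.Helper28.U6.P.d, Cfsg.Agent.Helper28.U6.P.e, Cfsg.Agent.Helper28.U6.P.f, Cfsg.Agent.Helper28.U6.P.g, Cfsg.Agent.Helper28.U6.P.h, Cfsg.Agent.Helper28.U6.P.i} : Set (FreeGroup Cfsg.Agent.Helper28.U6.P.Gen))).map (PresentedGroup.mk (Cfsg.Spor.coxRelators Cfsg.Agent.Helper28.U6.P.edges ∪ {r | r ∈ Cfsg.Agent.Helper28.U6.P.extra}))).card_mul_index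
  rw [Cfsg.Agent.Helper28.U6T.cert.index_eq] at hmul
  have hfin := h1.1
  have hpos : 0 < Nat.card ((Subgroup.closure ({Cfsg.Agent.Helper28.U6.P.c, Cfsg.Agent.Helper28.U6.P.d, Cfsg.Agent.Helper28.U6.P.e, Cfsg.Agent.Helper28.U6.P.f, Cfsg.Agent.Helper28.U6.P.g, Cfsg.Agent.Helper28.U6.P.h, Cfsg.Agent.Helper28.U6.P.i} : Set (FreeGroup Cfsg.Agent.Helper28.U6.P.Gen))).map (PresentedGroup.mk (Cfsg.Spor.coxRelators Cfsg.Agent.Helper28.U6.P.edges ∪ {r | r ∈ Cfsg.Agent.Helper28.U6.P.extra}))) := Nat.card_pos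
  have hne : Nat.card Cfsg.Agent.Helper28.U6.P ≠ 0 := by
    rw [← hmul]
    exact Nat.mul_ne_zero (Nat.pos_iff_ne_zero.mp hpos) (by norm_num)
  refine ⟨Nat.finite_of_card_ne_zero hne, ?_⟩
  rw [← hmul, Nat.mul_comm]
  exact Nat.mul_le_mul_left _ h1.2

end Cfsg.Agent.Helper28.U6
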