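import Mathlib
import Cfsg.Prelude.Def_SporCoxeter

/-!
# A presentation of the double cover 2.U6(2) on eight involutions (helper28; generated)

`P` is presented on `x, c, d, e, f, g, h, i`: in the Fischer group Fi22 these are the generators
`c, …, i` and the conjugate `x` of `a` by `b c d h e d c b`.  `R1` and `R2` are the groups presented on
`c, …, i` and on `c, d, e, f, g` by the relators among them.
-/

set_option autoImplicit false

namespace Cfsg.Agent.Helper28.U6

namespace P

/-- the generators -/
inductive Gen
  | x
  | c
  | d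
  | e
  | f
  | g
  | h
  | i
  deriving DecidableEq

/-- a generator as a word -/
abbrev x : FreeGroup Gen := FreeGroup.of Gen.x
/-- a generator as a word -/
abbrev c : FreeGroup Gen := FreeGroup.of Gen.c
/-- a generator as a word -/
abbrev d : FreeGroup Gen := FreeGroup.of Gen.d
/-- a generator as a word -/
abbrev e : FreeGroup Gen := FreeGroup.of Gen.e
/-- a generator as a word -/
abbrev f : FreeGroup Gen := FreeGroup.of Gen.f
/-- a generator as a word -/
abbrev g : FreeGroup Gen := FreeGroup.of Gen.g
/-- a generator as a word -/
abbrev h : FreeGroup Gen := FreeGroup.of Gen.h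
/-- a generator as a word -/
abbrev i : FreeGroup Gen := FreeGroup.of Gen.i

/-- the Coxeter graph -/
def edges : List (Gen × ℕ × Gen) :=
  [(.c, 3, .d), (.d, 3, .e), (.e, 3, .f), (.f, 3, .g), (.d, 3, .h), (.h, 3, .i), (.x, 3, .f), (.x, 3, .i)]

/-- the further relators -/
def extra : List (FreeGroup Gen) := [(c * d * e * f * g * h * i) ^ 9,
  (d * e * f * x * i * h) ^ 5,
  (h * d * e * f * x * g) ^ 5 * ((x * i * h * d * e * c) ^ 5)⁻¹]

end P

/-- the group presented on eight involutions (it is `2.U6(2)`) -/
abbrev P : Type := Cfsg.Spor.CoxPresented P.Gen P.edges P.extra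

namespace R1

/-- the generators -/
inductive Gen
  | c
  | d
  | e
  | f
  | g
  | h
  | i
  deriving DecidableEq

/-- a generator as a word -/
abbrev c : FreeGroup Gen := FreeGroup.of Gen.c
/-- a generator as a word -/
abbrev d : FreeGroup Gen := FreeGroup.of Gen.d
/-- a generator as a word -/
abbrev e : FreeGroup Gen := FreeGroup.of Gen.e
/-- a generator as a word -/
abbrev f : FreeGroup Gen := FreeGroup.of Gen.f
/-- a generator as a word -/
abbrev g : FreeGroup Gen := FreeGroup.of Gen.g
/-- a generator as a word -/
abbrev h : FreeGroup Gen := FreeGroup.of Gen.h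
/-- a generator as a word -/
abbrev i : FreeGroup Gen := FreeGroup.of Gen.i

/-- the Coxeter graph -/
def edges : List (Gen × ℕ × Gen) :=
  [(.c, 3, .d), (.d, 3, .e), (.e, 3, .f), (.f, 3, .g), (.d, 3, .h), (.h, 3, .i)]

/-- the further relators -/
def extra : List (FreeGroup Gen) := [(c * d * e * f * g * h * i) ^ 9]

/-- the inclusion of the generators -/
def inc : Gen → P.Gen
  | .c => .c
  | .d => .d
  | .e => .e
  | .f => .f
  | .g => .g
  | .h => .h
  | .i => .i

end R1

namespace R2

/-- the generators -/
inductive Gen
  | c
  | d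
  | e
  | f
  | g
  deriving DecidableEq

/-- a generator as a word -/
abbrev c : FreeGroup Gen := FreeGroup.of Gen.c
/-- a generator as a word -/
abbrev d : FreeGroup Gen := FreeGroup.of Gen.d
/-- a generator as a word -/
abbrev e : FreeGroup Gen := FreeGroup.of Gen.e
/-- a generator as a word -/
abbrev f : FreeGroup Gen := FreeGroup.of Gen.f
/-- a generator as a word -/
abbrev g : FreeGroup Gen := FreeGroup.of Gen.g

/-- the Coxeter graph -/
def edges : List (Gen × ℕ × Gen) :=
  [(.c, 3, .d), (.d, 3, .e), (.e, 3, .f), (.f, 3, .g)]

/-- the further relators -/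
def extra : List (FreeGroup Gen) := []

/-- the inclusion of the generators -/
def inc : Gen → P.Gen
  | .c => .c
  | .d => .d
  | .e => .e
  | .f => .f
  | .g => .g

end R2

end Cfsg.Agent.Helper28.U6
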